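import Cfsg.Agent.H481.Hall.Frame
import Cfsg.Agent.Cit.Comp
import Cfsg.Agent.S0254
import Cfsg.Agent.S0813
import Cfsg.Agent.ClassicalGeometry.PSL2Basic

/-!
# The exceptions `A₆` and `U₄(3)` (S2223, stub S4; helper481)
-/

set_option autoImplicit false

namespace Cfsg.Agent.H481.Hall

open Subgroup Cfsg.Agent.Cit Cfsg.Agent.H125.Hall Module

/-! ### quasisimple groups -/

theorem quo_not_comm {K : Type*} [Group K] (h : Cfsg.IsQuasisimple K) : ¬ ∀ a b : K ⧸ center K, a * b = b * a := by
  intro hc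
  have := h.2
  have h1 : commutator K ≤ center K := by
    rw [commutator_eq_closure, closure_le]
    rintro _ ⟨x, y, rfl⟩
    rw [SetLike.mem_coe, ← QuotientGroup.eq_one_iff]
    rw [commutatorElement_def, QuotientGroup.mk_mul, QuotientGroup.mk_mul, QuotientGroup.mk_mul, hc (x : K ⧸ center K),
      QuotientGroup.mk_inv, QuotientGroup.mk_inv, mul_inv_cancel_right, mul_inv_cancel]
  have h2 : center K = ⊤ := by
    rw [eq_top_iff, ← h.1.commutator_eq_top]
    exact h1
  obtain ⟨a, ha⟩ := exists_ne (1 : K ⧸ center K)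
  induction a using QuotientGroup.induction_on with
  | H a => exact ha ((QuotientGroup.eq_one_iff a).2 (by rw [h2]; trivial))

theorem not_comm {G : Type*} [Group G] {L : Subgroup G} (h : Cfsg.IsQuasisimple L) :
    ∃ x ∈ L, ∃ y ∈ L, x * y ≠ y * x := by
  by_contra hcon
  push Not at hcon
  apply quo_not_comm h
  intro a b
  induction a using QuotientGroup.induction_on with
  | H a =>
    induction b using QuotientGroup.induction_on with
    | H b =>
      rw [← QuotientGroup.mk_mul, ← QuotientGroup.mk_mul]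
      congr 1
      exact Subtype.ext (hcon a a.2 b b.2)

/-! ### `A₆` -/

theorem v2_alt {T : Type} [Group T] (h : Exc9 T) : v2 T = 5 := by
  obtain ⟨e⟩ := h
  have : Fact (Nat.Prime 3) := ⟨Nat.prime_three⟩
  have := Fintype.ofFinite (GaloisField 3 2)
  have hF : Fintype.card (GaloisField 3 2) = 9 := by
    rw [← Nat.card_eq_fintype_card, GaloisField.card 3 2 (by norm_num)]
    norm_num
  obtain ⟨e'⟩ := Cfsg.Agent.S0254.result hF
  have h1 : Nat.card (MulAut T) = 1440 := by
    rw [Nat.card_congr (MulAut.congr (e.trans e'.symm)).toEquiv,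
      Cfsg.Agent.S0813.result 3 2 (by norm_num) (by rw [hF]; norm_num) 2 le_rfl (fun _ => by norm_num),
      Cfsg.Agent.ClassicalGeometry.PSL2Basic.card_PGL2, hF]
    norm_num
  have h2 : (1440 : ℕ) = 2 ^ 5 * 45 := by norm_num
  rw [v2, h1, h2, Nat.factorization_mul (by norm_num) (by norm_num), Nat.Prime.factorization_pow Nat.prime_two,
    Finsupp.add_apply, Finsupp.single_eq_same, Nat.factorization_eq_zero_of_not_dvd (by norm_num)]


/-! ### the exception `U₄(3)` -/

section

variable {k : Type*} [Field k] [IsAlgClosed k] {V : Type*} [AddCommGroup V] [Module k V] [FiniteDimensional k V]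
  {A : Type*} [Group A] [Finite A]

/-- no elementary abelian subgroup of order 81 of `L / Z(L)` for `L ≤ Sp_6`, `|Z(L)| ≤ 2` -/
theorem no_81 (ρ : A →* (V →ₗ[k] V)) (hinj : Function.Injective ρ) (hcA : ∀ D : Subgroup A, (Nat.card D : k) ≠ 0)
    (B : LinearMap.BilinForm k V) (hB : ∀ a v w, B (ρ a v) (ρ a w) = B v w) (hn : B.Nondegenerate) (ha : B.IsAlt)
    (hd : finrank k V = 6) {L : Subgroup A} (hZ : ∀ z : A, (∀ x ∈ L, z * x = x * z) → z * z = 1)
    (E : Subgroup (↥L ⧸ center ↥L)) (hE : Nat.card E = 81) (hc : ∀ x ∈ E, ∀ y ∈ E, x * y = y * x)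
    (h3 : ∀ x ∈ E, x ^ 3 = 1) : False := by
  have hdvd : 3 ^ 4 ∣ Nat.card (E.comap (QuotientGroup.mk' (center ↥L))) := by
    have h1 : (E.comap (QuotientGroup.mk' (center ↥L))).map (QuotientGroup.mk' (center ↥L)) = E :=
      Subgroup.map_comap_eq_self_of_surjective (QuotientGroup.mk'_surjective _) E
    have h2 := Subgroup.card_dvd_of_surjective
      ((QuotientGroup.mk' (center ↥L)).subgroupMap (E.comap (QuotientGroup.mk' (center ↥L))))
      (MonoidHom.subgroupMap_surjective _ _)
    rw [h1, hE] at h2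
    exact h2
  have : Fact (Nat.Prime 3) := ⟨Nat.prime_three⟩
  obtain ⟨K, hK⟩ := Sylow.exists_subgroup_card_pow_prime 3 hdvd
  -- the elements of `K` which are mapped to `1`
  have key : ∀ z : ↥(E.comap (QuotientGroup.mk' (center ↥L))), z ∈ K →
      (QuotientGroup.mk' (center ↥L)) (z : L) = 1 → z = 1 := by
    intro z hz hz1
    have h1 : ((z : L) : A) * ((z : L) : A) = 1 := by
      apply hZ
      intro x hx
      have h2 := (QuotientGroup.eq_one_iff (z : L)).1 hz1
      exact congrArg Subtype.val ((mem_center_iff.1 h2) ⟨x, hx⟩).symm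
    have h2 : z ^ 2 = 1 := by
      rw [pow_two]
      exact Subtype.ext (Subtype.ext h1)
    have h4 : (⟨z, hz⟩ : K) ^ Nat.card K = 1 := pow_card_eq_one'
    rw [hK] at h4
    have h5 : z ^ 81 = 1 := congrArg Subtype.val h4
    calc z = z ^ 81 * (z ^ 2)⁻¹ ^ 40 := by group
      _ = 1 := by rw [h5, h2, inv_one, one_pow, one_mul]
  set D : Subgroup A := K.map ((L.subtype).comp (E.comap (QuotientGroup.mk' (center ↥L))).subtype) with hD
  have hDc : Nat.card D = 81 := by
    rw [hD, Nat.card_congr (K.equivMapOfInjective _ (fun x y hxy => Subtype.ext (Subtype.ext hxy))).toEquiv.symm, hK]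
    norm_num
  have h1 := card_sq_le ρ hinj hcA B hB hn ha _ D rfl (by
    rintro _ ⟨x, hx, rfl⟩ _ ⟨y, hy, rfl⟩
    have h2 : x * y * x⁻¹ * y⁻¹ = 1 := by
      apply key _ (K.mul_mem (K.mul_mem (K.mul_mem hx hy) (K.inv_mem hx)) (K.inv_mem hy))
      have hcc := hc _ (Subgroup.mem_comap.1 x.2) _ (Subgroup.mem_comap.1 y.2)
      simp only [Subgroup.coe_mul, Subgroup.coe_inv, map_mul, map_inv]
      rw [hcc, mul_inv_cancel_right, mul_inv_cancel]
    rw [← map_mul, ← map_mul]
    congr 1
    rwa [mul_inv_eq_one, mul_inv_eq_iff_eq_mul] at h2) (by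
    rintro _ ⟨x, hx, rfl⟩
    have h2 : x ^ 3 = 1 := by
      apply key _ (K.pow_mem hx 3)
      have hcc := h3 _ (Subgroup.mem_comap.1 x.2)
      rw [Subgroup.coe_pow, map_pow, hcc]
    rw [← map_pow, h2, map_one])
  rw [hDc, hd] at h1
  have h2 : 1 ≤ 3 ^ finrank k (Fx ρ D) := Nat.one_le_pow _ _ (by norm_num)
  nlinarith

end

end Cfsg.Agent.H481.Hall
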