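import Cfsg.Agent.H481.Hall.Exc
import Cfsg.Agent.H541.Hall.Lie
import Cfsg.Agent.H910.Hall.T67

/-!
# `FrSp.not_irr` (S2223, stub S4; helper481)

A component of `A` (with a symplectic frame) is not irreducible on `V`, if the number of planes is at least 3 and not a
power of 2.
-/

set_option autoImplicit false

namespace Cfsg.Agent.H481.Hall

open Subgroup Cfsg.Agent.Cit Cfsg.Agent.H125.Hall Module
open Cfsg.Agent.H541.Hall (TQ.lie)
open Cfsg.Agent.H910.Hall (card_dvd_aut pr_of_rep)

set_option linter.unusedVariables false in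
/-- **S4** -/
theorem FrSp.not_irr {k : Type} [Field k] [IsAlgClosed k] {V : Type} [AddCommGroup V] [Module k V]
    [FiniteDimensional k V] {A : Type} [Group A] [Finite A] {ρ : A →* (V →ₗ[k] V)} {S : Sylow 2 A} {ι : Type}
    [Finite ι] {t : ι → A} {Q : ι → Subgroup A} (h : FrSp ρ S t Q) (hc : (Nat.card A : k) ≠ 0)
    (hι : 3 ≤ Nat.card ι) (hι2 : ∀ e : ℕ, Nat.card ι ≠ 2 ^ e)
    (ho : 2 ^ (3 * Nat.card ι + (Nat.card ι).factorial.factorization 2) ∣ Nat.card S)
    (hals : ∀ (T : Type) [Group T] [Finite T] [IsSimpleGroup T], ¬ IsMulCommutative T → OddLieM T → ALSX T)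
    {L : Subgroup A} (hL : Cfsg.IsComponent L) :
    ¬ ∀ W : Submodule k V, (∀ x ∈ L, ∀ v ∈ W, ρ x v ∈ W) → W = ⊥ ∨ W = ⊤ := by
  intro hirr
  have hfr := h.toFr
  have hq : Cfsg.IsQuasisimple L := hL.2
  obtain ⟨B, hBn, hBa, hBi⟩ := h.form
  have hdim : finrank k V = 2 * Nat.card ι := by
    have h1 := finrank_eq hfr
    rwa [finrank_bot, zero_add] at h1
  have hnt : Nontrivial V := Module.finrank_pos_iff.1 (by rw [hdim]; omega)
  obtain ⟨v0, hv0⟩ := exists_ne (0 : V)
  have hcA : ∀ D : Subgroup A, (Nat.card D : k) ≠ 0 := by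
    intro D h0
    obtain ⟨m, hm⟩ := D.card_subgroup_dvd_card
    apply hc
    rw [hm, Nat.cast_mul, h0, zero_mul]
  -- the elements of `C(L)` are `± 1`
  have hcent : ∀ c : A, (∀ x ∈ L, c * x = x * c) → ∃ r : k, (∀ v, ρ c v = r • v) ∧ (r = 1 ∨ r = -1) := by
    intro c hcL
    obtain ⟨r, hr⟩ := schur ρ hirr (ρ c) (fun x hx v => rho_comm (hcL x hx) v)
    refine ⟨r, hr, ?_⟩
    have h1 : ∃ v w, B v w ≠ 0 := by
      by_contra hcon
      push Not at hcon
      exact hv0 (hBn.1 v0 (fun w => hcon v0 w))
    obtain ⟨v, w, hvw⟩ := h1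
    have h2 := hBi c v w
    rw [hr, hr, map_smul, map_smul, LinearMap.smul_apply, smul_smul, smul_eq_mul] at h2
    have h3 : r * r = 1 := mul_right_cancel₀ hvw (by rw [h2, one_mul])
    exact mul_self_eq_one_iff.1 h3
  have hZ : ∀ z : A, (∀ x ∈ L, z * x = x * z) → z * z = 1 := by
    intro z hz
    obtain ⟨r, hr, hr'⟩ := hcent z hz
    apply h.inj
    refine LinearMap.ext fun v => ?_
    rw [map_mul, Module.End.mul_apply, hr, hr, smul_smul, map_one, Module.End.one_apply]
    rcases hr' with rfl | rfl <;> simp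
  -- `L` is normal in `A`
  have hLn : ∀ a : A, ∀ x ∈ L, a * x * a⁻¹ ∈ L := by
    intro a x hx
    by_contra hne
    have hL' : Cfsg.IsComponent (L.map (MulAut.conj a).toMonoidHom) :=
      Cfsg.Agent.SignalizersComponents.Components.isComponent_conj a hL
    have hmem : ∀ y ∈ L, a * y * a⁻¹ ∈ L.map (MulAut.conj a).toMonoidHom := fun y hy => ⟨y, hy, rfl⟩
    have hne' : L.map (MulAut.conj a).toMonoidHom ≠ L := fun he => hne (he ▸ hmem x hx)
    obtain ⟨y, hy, z, hz, hyz⟩ := not_comm hq
    obtain ⟨r, hr, -⟩ := hcent (a * y * a⁻¹) (fun w hw => Cfsg.Agent.Cit.Comp.comm_of_ne hL' hL hne' (hmem y hy) hw)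
    obtain ⟨s, hs, -⟩ := hcent (a * z * a⁻¹) (fun w hw => Cfsg.Agent.Cit.Comp.comm_of_ne hL' hL hne' (hmem z hz) hw)
    have h1 : (a * y * a⁻¹) * (a * z * a⁻¹) = (a * z * a⁻¹) * (a * y * a⁻¹) := by
      apply h.inj
      refine LinearMap.ext fun v => ?_
      rw [map_mul ρ (a * y * a⁻¹), map_mul ρ (a * z * a⁻¹), Module.End.mul_apply, Module.End.mul_apply, hr, hs, hr, hs,
        smul_comm]
    apply hyz
    have h2 : a * (y * z) * a⁻¹ = a * (z * y) * a⁻¹ := by
      calc a * (y * z) * a⁻¹ = (a * y * a⁻¹) * (a * z * a⁻¹) := by group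
        _ = _ := h1
        _ = _ := by group
    exact mul_left_cancel (mul_right_cancel h2)
  -- the order of `Aut T`
  have hcard2 : Nat.card ↥((S : Subgroup A) ⊓ centralizer (L : Set A)) ∣ 2 := by
    have h1 : Nat.card ↥((S : Subgroup A) ⊓ centralizer (L : Set A)) ≤ 2 := by
      classical
      have h2 : Function.Injective
          (fun c : ↥((S : Subgroup A) ⊓ centralizer (L : Set A)) => (decide (c = 1) : Bool)) := by
        intro c d hcd
        simp only [decide_eq_decide] at hcd
        by_cases hc1 : c = 1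
        · rw [hc1, hcd.1 hc1]
        · have hd1 : d ≠ 1 := fun h' => hc1 (hcd.2 h')
          have key : ∀ e : ↥((S : Subgroup A) ⊓ centralizer (L : Set A)), e ≠ 1 → ∀ v, ρ (e : A) v = -v := by
            intro e he v
            obtain ⟨r, hr, hr'⟩ := hcent e (fun x hx => ((mem_centralizer_iff.1 e.2.2) x hx).symm)
            rcases hr' with rfl | rfl
            · exfalso
              apply he
              apply Subtype.ext
              apply h.inj
              refine LinearMap.ext fun w => ?_
              rw [hr, one_smul, OneMemClass.coe_one, map_one, Module.End.one_apply]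
            · rw [hr, neg_smul, one_smul]
          apply Subtype.ext
          apply h.inj
          refine LinearMap.ext fun v => ?_
          rw [key c hc1, key d hd1]
      have h3 := Nat.card_le_card_of_injective _ h2
      rwa [Nat.card_eq_fintype_card (α := Bool), Fintype.card_bool] at h3
    have h2 : 0 < Nat.card ↥((S : Subgroup A) ⊓ centralizer (L : Set A)) := Nat.card_pos
    interval_cases hx : Nat.card ↥((S : Subgroup A) ⊓ centralizer (L : Set A)) <;> norm_num
  have haut := card_dvd_aut hq (S : Subgroup A) (fun a _ x hx => hLn a x hx)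
  set T := ↥L ⧸ center ↥L with hT
  have hfT : Finite T := inferInstance
  have hfA : Finite (MulAut T) := Finite.of_injective (fun f : MulAut T => (f : T → T)) DFunLike.coe_injective
  have hpos : Nat.card (MulAut T) ≠ 0 := Nat.card_pos.ne'
  have hv2 : 3 * Nat.card ι + (Nat.card ι).factorial.factorization 2 ≤ v2 T + 1 := by
    have h1 : 2 ^ (3 * Nat.card ι + (Nat.card ι).factorial.factorization 2) ∣ 2 * Nat.card (MulAut T) :=
      (ho.trans haut).trans (Nat.mul_dvd_mul_right hcard2 _)
    have h2 := (Nat.prime_two.pow_dvd_iff_le_factorization (by positivity)).1 h1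
    rw [Nat.factorization_mul (by norm_num) hpos, Finsupp.add_apply, Nat.prime_two.factorization_self] at h2
    rw [v2]
    omega
  -- `i : ι`
  have hne : Nonempty ι := by
    rw [← not_isEmpty_iff]
    intro he
    have : Nat.card ι = 0 := Nat.card_of_isEmpty
    omega
  obtain ⟨i⟩ := hne
  have hti := sq_one hfr i
  have hnc : ¬ ∀ x ∈ L, t i * x = x * t i := by
    intro hcom
    obtain ⟨r, hr, hr'⟩ := hcent (t i) hcom
    have h1 := hfr.dim i
    rcases hr' with rfl | rfl
    · have h2 : mv ρ (t i) = ⊥ := by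
        rw [Submodule.eq_bot_iff]
        intro w hw
        obtain ⟨v, rfl⟩ := mem_mv.1 hw
        rw [hr, one_smul, sub_self]
      rw [h2, finrank_bot] at h1
      exact absurd h1 (by norm_num)
    · have h2 : mv ρ (t i) = ⊤ := by
        rw [eq_top_iff]
        intro w _
        rw [mem_mv_iff h.two hti, hr, neg_smul, one_smul]
      rw [h2, finrank_top] at h1
      omega
  have hlie : OddLieM T := by
    refine TQ.lie (tq_of_fr hfr i) hL (fun a _ x hx => hLn a x hx) hnc (fun g _ hg => ⟨1, fun x _ => by simp, ?_⟩)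
    rw [mul_one]
    obtain ⟨r, hr, hr'⟩ := hcent _ hg
    rcases hr' with rfl | rfl
    · have h1 : g * t i * g⁻¹ * (t i)⁻¹ = 1 := by
        apply h.inj
        refine LinearMap.ext fun v => ?_
        rw [hr, one_smul, map_one, Module.End.one_apply]
      rwa [mul_inv_eq_one, mul_inv_eq_iff_eq_mul] at h1
    · exfalso
      -- the fixed points of `t i` are in `[V, g t g⁻¹]`
      have h1 : ∀ v, ρ (t i) v = v → ρ (g * t i * g⁻¹) v = -v := by
        intro v hv
        have h2 := hr v
        rw [neg_smul, one_smul] at h2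
        rw [← h2, map_mul ρ (g * t i * g⁻¹), Module.End.mul_apply]
        congr 1
        conv_rhs => rw [← hv]
        rw [← Module.End.mul_apply, ← map_mul, inv_mul_cancel, map_one, Module.End.one_apply]
      have hgt : (g * t i * g⁻¹) * (g * t i * g⁻¹) = 1 := by
        calc (g * t i * g⁻¹) * (g * t i * g⁻¹) = g * (t i * t i) * g⁻¹ := by group
          _ = 1 := by rw [hti]; group
      have h3 : Fj ρ t {i} ≤ mv ρ (g * t i * g⁻¹) := by
        intro v hv
        rw [mem_mv_iff h.two hgt]
        exact h1 v (hv i (Finset.mem_singleton_self i))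
      have h4 := Submodule.finrank_mono h3
      have h5 := finrank_Fj hfr {i}
      rw [Finset.card_singleton] at h5
      have h6 : finrank k (mv ρ (g * t i * g⁻¹)) ≤ 2 := by
        rw [← hfr.dim i]
        have h7 : mv ρ (g * t i * g⁻¹) ≤ (mv ρ (t i)).map (ρ g) := by
          intro w hw
          rw [mem_mv_iff h.two hgt] at hw
          refine ⟨ρ g⁻¹ w, ?_, ?_⟩
          · rw [SetLike.mem_coe, mem_mv_iff h.two hti]
            calc ρ (t i) (ρ g⁻¹ w) = ρ (g⁻¹ * (g * t i * g⁻¹)) w := by
                  rw [← Module.End.mul_apply, ← map_mul]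
                  congr 2
                  group
              _ = ρ g⁻¹ (ρ (g * t i * g⁻¹) w) := by rw [map_mul, Module.End.mul_apply]
              _ = -ρ g⁻¹ w := by rw [hw, map_neg]
          · rw [← Module.End.mul_apply, ← map_mul, mul_inv_cancel, map_one, Module.End.one_apply]
        exact (Submodule.finrank_mono h7).trans (Submodule.finrank_map_le _ _)
      omega
  have hPR : PR (2 * Nat.card ι) T := by
    have h1 := pr_of_rep ρ hq (hcA L) ⊤ (fun x _ v _ => trivial) (by
      intro hall
      obtain ⟨x, hx, y, hy, hxy⟩ := not_comm hq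
      have h2 : ∀ x ∈ L, x = 1 := by
        intro x hx
        apply h.inj
        refine LinearMap.ext fun v => ?_
        rw [hall x hx v trivial, map_one, Module.End.one_apply]
      exact hxy (by rw [h2 x hx, h2 y hy]))
    rwa [finrank_top, hdim] at h1
  have hsim : IsSimpleGroup T := hq.2
  have hals' := hals T (fun hcm => quo_not_comm hq hcm.is_comm.comm) hlie
  -- the exponent of 2 in `n!`
  have hf1 : 1 ≤ (Nat.card ι).factorial.factorization 2 :=
    (Nat.prime_two.pow_dvd_iff_le_factorization (Nat.factorial_ne_zero _)).1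
      (by rw [pow_one]; exact Nat.dvd_factorial (by norm_num) (by omega))
  have hf3 : 4 ≤ Nat.card ι → 3 ≤ (Nat.card ι).factorial.factorization 2 := fun h4 =>
    (Nat.prime_two.pow_dvd_iff_le_factorization (Nat.factorial_ne_zero _)).1
      ((by decide : 2 ^ 3 ∣ Nat.factorial 4).trans (Nat.factorial_dvd_factorial h4))
  rcases hals' with hX | hX | hX | hX
  · have h1 := (hX _ hPR).2.2.1 (by omega)
    omega
  · have h1 := hX.1
    omega
  · have h1 := v2_alt hX
    omega
  · obtain ⟨h10, -, E, hE, hEc, hE3⟩ := hX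
    have h3 : Nat.card ι = 3 := by
      by_contra hne3
      have h4 := hf3 (by omega)
      omega
    exact no_81 ρ h.inj hcA B hBi hBn hBa (by rw [hdim, h3]) hZ E hE hEc hE3

end Cfsg.Agent.H481.Hall
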